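import Mathlib
import Cfsg.Agent.Lib.Helper26.FusOmega
import Cfsg.Agent.Lib.Helper26.FusCen
import Cfsg.Agent.Lib.Helper26.FusSub

set_option autoImplicit false

namespace Cfsg.Agent.Lib.Helper26

open Cfsg Cfsg.FusionSystem

universe u

section fus

variable {Ω : Type u} [Group Ω] {S : Subgroup Ω}

/-- Automorphisms of `P` in `F` acting trivially on `R` and on `Q` modulo `R`. -/
def stabAut (F : FusionSystem S) {R Q P : Subgroup Ω} (hQ : F.StronglyClosed Q) (hP : P ≤ S)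
    (hRQ : R ≤ Q) : Subgroup (MulAut P) where
  carrier := {β | β ∈ F.autGroup P ∧ (∀ y : P, (y : Ω) ∈ R → β y = y) ∧
    ∀ y : P, (y : Ω) ∈ Q → ((y⁻¹ * β y : P) : Ω) ∈ R}
  one_mem' := ⟨one_mem _, fun _ _ => rfl, fun y _ => by
    show ((y⁻¹ * y : P) : Ω) ∈ R
    rw [inv_mul_cancel]
    exact R.one_mem⟩
  mul_mem' := by
    rintro a b ⟨ha, ha1, ha2⟩ ⟨hb, hb1, hb2⟩
    refine ⟨mul_mem ha hb, fun y hy => ?_, fun y hy => ?_⟩
    · show a (b y) = y
      rw [hb1 y hy, ha1 y hy]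
    · show ((y⁻¹ * a (b y) : P) : Ω) ∈ R
      have h1 := hb2 y hy
      have h2 : b y = y * (y⁻¹ * b y) := by group
      have h3 : a (b y) = a y * (y⁻¹ * b y) := by
        conv_lhs => rw [h2, map_mul, ha1 _ h1]
      rw [h3, ← mul_assoc]
      exact R.mul_mem (ha2 y hy) h1
  inv_mem' := by
    rintro a ⟨ha, ha1, ha2⟩
    refine ⟨inv_mem ha, fun y hy => ?_, fun y hy => ?_⟩
    · have h1 := ha1 y hy
      conv_lhs => rw [← h1]
      exact MulAut.inv_apply_self _ _ _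
    · have hw : ((a⁻¹ y : P) : Ω) ∈ Q := stronglyClosed_aut_invariant F hQ hP (inv_mem ha) y hy
      have h1 := ha2 (a⁻¹ y) hw
      rw [MulAut.apply_inv_self] at h1
      have h2 : y⁻¹ * a⁻¹ y = ((a⁻¹ y)⁻¹ * y)⁻¹ := by group
      rw [h2]
      exact R.inv_mem h1

theorem stabAut_pow (F : FusionSystem S) {R Q P : Subgroup Ω} (hQ : F.StronglyClosed Q)
    (hP : P ≤ S) (hRQ : R ≤ Q) {β : MulAut P} (hβ : β ∈ stabAut F hQ hP hRQ) (y : P)
    (hy : (y : Ω) ∈ Q) (n : ℕ) : (β ^ n) y = y * (y⁻¹ * β y) ^ n := by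
  induction n with
  | zero => simp
  | succ n ih =>
    rw [pow_succ', MulAut.mul_apply, ih, map_mul, map_pow, hβ.2.1 _ (hβ.2.2 y hy),
      pow_succ' (y⁻¹ * β y) n, ← mul_assoc, mul_inv_cancel_left]

theorem conj_pow_apply {P : Type*} [Group P] {γ : MulAut P} {z : P}
    (h : ∀ y, γ y = z * y * z⁻¹) (m : ℕ) (y : P) : (γ ^ m) y = z ^ m * y * (z ^ m)⁻¹ := by
  induction m generalizing y with
  | zero => simp
  | succ m ih =>
    rw [pow_succ', MulAut.mul_apply, ih, h, pow_succ']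
    group

theorem stabAut_isPGroup [Finite S] {p : ℕ} [Fact p.Prime] (hS : IsPGroup p S)
    (F : FusionSystem S) (hF : F.IsSaturated p) {R Q P : Subgroup Ω} (hQ : F.StronglyClosed Q)
    (hQc : F.IsCentric Q) (hP : P ≤ S) (hRQ : R ≤ Q) (hQP : Q ≤ P) :
    IsPGroup p (stabAut F hQ hP hRQ) := by
  have hRS : R ≤ S := hRQ.trans hQ.1
  have hfinR : Finite R := finite_of_le hRS
  have hPp : IsPGroup p P := hS.to_le hP
  obtain ⟨a, ha⟩ := IsPGroup.iff_card.mp (hS.to_le hRS)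
  have hn : P ≤ Subgroup.normalizer (Q : Set Ω) :=
    hP.trans (stronglyClosed_le_normalizer F hQ)
  rintro ⟨β, hβ⟩
  have hfix : ∀ x : P, (x : Ω) ∈ Q → (β ^ (p ^ a)) x = x := by
    intro x hx
    rw [stabAut_pow F hQ hP hRQ hβ x hx]
    have h1 : ((⟨((x⁻¹ * β x : P) : Ω), hβ.2.2 x hx⟩ : R)) ^ (p ^ a) = 1 := by
      rw [← ha]
      exact pow_card_eq_one'
    have h2 : (x⁻¹ * β x) ^ (p ^ a) = 1 := by
      apply Subtype.ext
      have h3 := congrArg (fun z : R => (z : Ω)) h1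
      exact h3
    rw [h2, mul_one]
  obtain ⟨z, -, -, hz⟩ := aut_eq_conj_of_fix_centric hS F hF hP hQP hQc hn (β ^ (p ^ a))
    (pow_mem hβ.1 _) hfix
  obtain ⟨b, hb⟩ := hPp z
  refine ⟨a + b, Subtype.ext ?_⟩
  show β ^ (p ^ (a + b)) = 1
  rw [pow_add, pow_mul]
  apply MulEquiv.ext
  intro y
  rw [conj_pow_apply hz, hb]
  simp

/-- In a constrained system with `Q` the largest normal subgroup: a strongly closed subgroup `D`
centralizing a strongly closed `R ≤ Q` and acting trivially on `Q` modulo `R` lies in `Q`. -/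
theorem le_core_of_stab [Finite S] {p : ℕ} [Fact p.Prime] (hS : IsPGroup p S)
    (F : FusionSystem S) (hF : F.IsSaturated p) (hQc : F.IsCentric F.core) {R D : Subgroup Ω}
    (hRQ : R ≤ F.core) (hR : F.StronglyClosed R) (hD : F.StronglyClosed D)
    (hcen : ∀ d ∈ D, ∀ r ∈ R, d * r = r * d)
    (hact : ∀ d ∈ D, ∀ q ∈ F.core, q⁻¹ * (d * q * d⁻¹) ∈ R) : D ≤ F.core := by
  have hQn : F.IsNormal F.core := isNormal_core F
  have hQsc := stronglyClosed_of_isNormal F hQn
  have hDn : F.IsNormal D := by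
    apply (Cfsg.Agent.S5086.result p hS F hF D).mpr
    refine ⟨hD, fun P hc hr => ?_⟩
    have hP : P ≤ S := hc.1
    have hQP : F.core ≤ P := normal_le_of_centric_radical hS F hQn hc hr
    refine le_of_centric_radical_of_stab hS F hc hr hD.1 (stronglyClosed_le_normalizer F hD)
      (stabAut F hQsc hP hRQ) (fun β hβ => hβ.1)
      (stabAut_isPGroup hS F hF hQsc hQc hP hRQ hQP) ?_ ?_
    · rintro α hα β ⟨hβ, hβ1, hβ2⟩
      refine ⟨mul_mem (mul_mem hα hβ) (inv_mem hα), fun y hy => ?_, fun y hy => ?_⟩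
      · show α (β (α⁻¹ y)) = y
        have hRsc : ((α⁻¹ y : P) : Ω) ∈ R :=
          stronglyClosed_aut_invariant F hR hP (inv_mem hα) y hy
        rw [hβ1 _ hRsc, MulAut.apply_inv_self]
      · show ((y⁻¹ * α (β (α⁻¹ y)) : P) : Ω) ∈ R
        have hw : ((α⁻¹ y : P) : Ω) ∈ F.core :=
          stronglyClosed_aut_invariant F hQsc hP (inv_mem hα) y hy
        have h1 := hβ2 _ hw
        have h2 := stronglyClosed_aut_invariant F hR hP hα _ h1
        rw [map_mul, map_inv, MulAut.apply_inv_self] at h2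
        exact h2
    · intro g hg hgD
      have hgS : g ∈ S := hD.1 hgD
      refine ⟨autInducedBy_le_autGroup F hP (conj_mem_autInducedBy hgS hg), fun y hy => ?_,
        fun y hy => ?_⟩
      · apply Subtype.ext
        show g * (y : Ω) * g⁻¹ = y
        rw [hcen g hgD y hy, mul_inv_cancel_right]
      · show (y : Ω)⁻¹ * (g * (y : Ω) * g⁻¹) ∈ R
        exact hact g hgD y hy
  exact le_sSup hDn

theorem commutator_inf_le {G : Type*} [Group G] {A B C : Subgroup G} (T : Subgroup G)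
    (h : ⁅A, B⁆ ≤ C) : ⁅A ⊓ T, B ⊓ T⁆ ≤ C ⊓ T := by
  apply le_inf
  · exact le_trans (Subgroup.commutator_mono inf_le_left inf_le_left) h
  · rw [Subgroup.commutator_le]
    intro g₁ h₁ g₂ h₂
    exact T.mul_mem (T.mul_mem (T.mul_mem h₁.2 h₂.2) (T.inv_mem h₁.2)) (T.inv_mem h₂.2)

/-- A saturated subsystem, over a strongly closed subgroup, of a constrained system is
constrained. -/
theorem constrained_of_sub [Finite S] {p : ℕ} [Fact p.Prime] (hS : IsPGroup p S)
    (F : FusionSystem S) (hF : F.IsConstrained p) {T : Subgroup Ω} (hT : F.StronglyClosed T)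
    (E : FusionSystem T) (hE : E.IsSaturated p) (hEF : E.IsSubsystemOf F) :
    E.IsConstrained p := by
  obtain ⟨hFs, Q₀, hQ₀n, hQ₀c⟩ := hF
  have hTS := hT.1
  have hfinT : Finite T := finite_of_le hTS
  have hTp : IsPGroup p T := hS.to_le hTS
  have hQn : F.IsNormal F.core := isNormal_core F
  have hQS : F.core ≤ S := hQn.1
  have hQc : F.IsCentric F.core := isCentric_of_le F hQ₀c (le_sSup hQ₀n) hQS
  have hQsc := stronglyClosed_of_isNormal F hQn
  have hTn := stronglyClosed_le_normalizer F hT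
  have hQnm := stronglyClosed_le_normalizer F hQsc
  obtain ⟨n, C, hC0, hCn, hmono, hnorm, hcomm⟩ := exists_central_chain hS F hQn
  have hchainF : ∀ i, F.StronglyClosed (C i ⊓ T) := fun i =>
    stronglyClosed_inf F (stronglyClosed_of_isNormal F (hnorm i)) hT
  have hchainE : ∀ i, E.StronglyClosed (C i ⊓ T) := fun i =>
    ⟨inf_le_right, fun R hR φ hφ x => (hchainF i).2 R hR φ (hEF _ hφ) x⟩
  have hstep : ∀ i : ℕ, ⁅F.core ⊓ T, C (i + 1) ⊓ T⁆ ≤ C i ⊓ T := by
    intro i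
    apply commutator_inf_le
    rw [Subgroup.commutator_comm]
    exact hcomm i
  have hRnF : F.IsNormal (F.core ⊓ T) := by
    apply (Cfsg.Agent.S5088.result p hS F hFs (F.core ⊓ T)).mpr
    refine ⟨n, fun i => C i ⊓ T, ?_, ?_, fun i j hij => inf_le_inf_right T (hmono hij),
      fun i => ⟨hchainF _, hstep i⟩⟩
    · show C 0 ⊓ T = ⊥
      rw [hC0, bot_inf_eq]
    · show C n ⊓ T = F.core ⊓ T
      rw [hCn]
  have hRnE : E.IsNormal (F.core ⊓ T) := by
    apply (Cfsg.Agent.S5088.result p hTp E hE (F.core ⊓ T)).mpr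
    refine ⟨n, fun i => C i ⊓ T, ?_, ?_, fun i j hij => inf_le_inf_right T (hmono hij),
      fun i => ⟨hchainE _, hstep i⟩⟩
    · show C 0 ⊓ T = ⊥
      rw [hC0, bot_inf_eq]
    · show C n ⊓ T = F.core ⊓ T
      rw [hCn]
  have hRsc := stronglyClosed_of_isNormal F hRnF
  have hXsc : F.StronglyClosed (centralizerIn T (F.core ⊓ T)) := by
    refine ⟨(centralizerIn_le T _).trans hTS, fun U hU φ hφ x => ?_⟩
    obtain ⟨ψ, hψ, hext, hmap⟩ := hRnF.2 U φ hφ
    refine ⟨hT.2 U (hU.trans (centralizerIn_le T _)) φ hφ x, ?_⟩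
    show φ x ∈ Subgroup.centralizer ((F.core ⊓ T : Subgroup Ω) : Set Ω)
    rw [Subgroup.mem_centralizer_iff]
    intro r hr
    have hr' : r ∈ ((F.core ⊓ T).subgroupOf (U ⊔ (F.core ⊓ T))).map ψ := by
      rw [hmap]
      exact hr
    obtain ⟨r', hr'mem, rfl⟩ := hr'
    rw [← hext x, ← map_mul, ← map_mul]
    congr 1
    apply Subtype.ext
    show (r' : Ω) * x = x * r'
    have hx : (x : Ω) ∈ Subgroup.centralizer ((F.core ⊓ T : Subgroup Ω) : Set Ω) := (hU x.2).2
    exact Subgroup.mem_centralizer_iff.mp hx r' (Subgroup.mem_subgroupOf.mp hr'mem)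
  have hXle : centralizerIn T (F.core ⊓ T) ≤ F.core := by
    apply le_core_of_stab hS F hFs hQc inf_le_left hRsc hXsc
    · intro d hd r hr
      have hd' : d ∈ Subgroup.centralizer ((F.core ⊓ T : Subgroup Ω) : Set Ω) := hd.2
      exact (Subgroup.mem_centralizer_iff.mp hd' r hr).symm
    · intro d hd q hq
      have hdS : d ∈ S := hTS hd.1
      have hqS : q ∈ S := hQS hq
      refine ⟨?_, ?_⟩
      · exact (F.core).mul_mem ((F.core).inv_mem hq)
          ((Subgroup.mem_normalizer_iff.mp (hQnm hdS) q).mp hq)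
      · have h1 := (Subgroup.mem_normalizer_iff.mp (hTn (S.inv_mem hqS)) d).mp hd.1
        rw [inv_inv] at h1
        have h2 : q⁻¹ * (d * q * d⁻¹) = q⁻¹ * d * q * d⁻¹ := by group
        rw [h2]
        exact T.mul_mem h1 (T.inv_mem hd.1)
  refine ⟨hE, F.core ⊓ T, hRnE, inf_le_right, fun R' hconj => ?_⟩
  rw [conj_eq_of_isNormal E hRnE hconj]
  exact le_inf hXle (centralizerIn_le T _)

end fus

section grp

variable {G : Type u} [Group G]

theorem fusionSystemOfSubgroup_top_eq (S : Subgroup G) (h : S ≤ ⊤) :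
    fusionSystemOfSubgroup ⊤ S h = groupFusionSystem S := by
  apply fusionSystem_ext
  intro P
  ext φ
  constructor
  · rintro ⟨hP, hφ, g, -, hg⟩
    exact ⟨hP, hφ, g, hg⟩
  · rintro ⟨hP, hφ, g, hg⟩
    exact ⟨hP, hφ, g, Subgroup.mem_top g, hg⟩

/-- Constrainedness of the fusion system of a group passes to subnormal subgroups. -/
theorem subnormal_constrained [Finite G] {p : ℕ} [Fact p.Prime] (S : Sylow p G)
    (hF : (groupFusionSystem (S : Subgroup G)).IsConstrained p) (H : Subgroup G)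
    (hH : H.IsSubnormal) :
    ∀ (T : Subgroup G), T = (S : Subgroup G) ⊓ H → ∀ hTH : T ≤ H,
      IsSylowIn p H T ∧ (fusionSystemOfSubgroup H T hTH).IsConstrained p := by
  induction hH with
  | top =>
    intro T hT hTH
    rw [inf_top_eq] at hT
    subst hT
    refine ⟨isSylowIn_of_sylow S le_top, ?_⟩
    rw [fusionSystemOfSubgroup_top_eq]
    exact hF
  | step H K h_le hSubn hN ih =>
    intro T hT hTH
    obtain ⟨hsylK, hcK⟩ := ih ((S : Subgroup G) ⊓ K) rfl inf_le_right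
    have hnorm : ∀ n ∈ K, ∀ k ∈ H, n * k * n⁻¹ ∈ H := by
      intro n hn k hk
      have h1 := hN.conj_mem ⟨k, h_le hk⟩ (Subgroup.mem_subgroupOf.mpr hk) ⟨n, hn⟩
      exact Subgroup.mem_subgroupOf.mp h1
    have hTeq : T = ((S : Subgroup G) ⊓ K) ⊓ H := by
      rw [hT, inf_assoc, inf_eq_right.mpr h_le]
    have hsylH : IsSylowIn p H T := by
      rw [hTeq]
      exact IsSylowIn.inf_of_normal hsylK inf_le_right h_le hnorm
    refine ⟨hsylH, ?_⟩
    have hTK : T ≤ (S : Subgroup G) ⊓ K := hTeq.le.trans inf_le_left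
    have hKp : IsPGroup p ↥((S : Subgroup G) ⊓ K) := S.isPGroup'.to_le inf_le_left
    refine constrained_of_sub hKp _ hcK (T := T) ?_ _
      (subgroupFusion_saturated H T hTH hsylH) ?_
    · refine ⟨hTK, fun R hR φ hφ x => ?_⟩
      obtain ⟨-, hφS, g, hgK, hg⟩ := hφ
      rw [hTeq]
      refine ⟨hφS x, ?_⟩
      rw [hg]
      exact hnorm g hgK _ (hTH (hR x.2))
    · intro P φ hφ
      obtain ⟨hP, hφT, g, hgH, hg⟩ := hφ
      exact ⟨hP.trans hTK, fun x => hTK (hφT x), g, h_le hgH, hg⟩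

/-- Transport of constrainedness from the fusion system of a subgroup inside the ambient group
to the fusion system of the subgroup as a group. -/
theorem constrained_subgroupOf [Finite G] {p : ℕ} [Fact p.Prime] (H T : Subgroup G) (hTH : T ≤ H)
    (hsyl : IsSylowIn p H T) (hc : (fusionSystemOfSubgroup H T hTH).IsConstrained p) :
    (groupFusionSystem (T.subgroupOf H)).IsConstrained p := by
  obtain ⟨-, Q₀, hQn, hQc⟩ := hc
  have hQ₀T : Q₀ ≤ T := hQn.1
  have hQle : Q₀.subgroupOf H ≤ T.subgroupOf H := fun x hx =>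
    Subgroup.mem_subgroupOf.mpr (hQ₀T (Subgroup.mem_subgroupOf.mp hx))
  constructor
  · obtain ⟨R, hR⟩ := hsyl
    rw [← hR]
    exact groupFusion_saturated R
  refine ⟨Q₀.subgroupOf H, ⟨hQle, ?_⟩, ⟨hQle, ?_⟩⟩
  · intro P φ hφ
    obtain ⟨hP, hφT, h, hh⟩ := hφ
    have hP₀ : P.map H.subtype ≤ T := by
      rintro _ ⟨x, hx, rfl⟩
      exact Subgroup.mem_subgroupOf.mp (hP hx)
    have hφ₀ : conjHom (P.map H.subtype) (h : G) ∈
        (fusionSystemOfSubgroup H T hTH).Hom (P.map H.subtype) := by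
      refine ⟨hP₀, ?_, h, h.2, fun x => rfl⟩
      rintro ⟨_, x, hx, rfl⟩
      have h1 := hφT ⟨x, hx⟩
      rw [hh] at h1
      exact Subgroup.mem_subgroupOf.mp h1
    obtain ⟨ψ₀, ⟨hPQ, hψ₀T, h', hh'H, hh'⟩, hext, hmap⟩ := hQn.2 _ _ hφ₀
    have hsup : ∀ x : ↥(P ⊔ Q₀.subgroupOf H), ((x : H) : G) ∈ P.map H.subtype ⊔ Q₀ := by
      intro x
      have h1 : (P ⊔ Q₀.subgroupOf H).map H.subtype ≤ P.map H.subtype ⊔ Q₀ := by
        rw [Subgroup.map_sup]
        apply sup_le_sup_left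
        rintro _ ⟨y, hy, rfl⟩
        exact Subgroup.mem_subgroupOf.mp hy
      exact h1 ⟨x, x.2, rfl⟩
    refine ⟨conjHom (P ⊔ Q₀.subgroupOf H) ⟨h', hh'H⟩, ⟨sup_le hP hQle, ?_, ⟨h', hh'H⟩,
      fun x => rfl⟩, ?_, ?_⟩
    · intro x
      apply Subgroup.mem_subgroupOf.mpr
      have h1 := hψ₀T ⟨_, hsup x⟩
      rw [hh'] at h1
      exact h1
    · intro x
      apply Subtype.ext
      have h1 := hext ⟨(x : H), ⟨x, x.2, rfl⟩⟩
      rw [hh'] at h1
      rw [hh x]
      exact h1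
    · ext y
      constructor
      · rintro ⟨x, hx, rfl⟩
        apply Subgroup.mem_subgroupOf.mpr
        have hxQ : ((x : H) : G) ∈ Q₀ :=
          Subgroup.mem_subgroupOf.mp (Subgroup.mem_subgroupOf.mp hx)
        have h1 : ψ₀ ⟨_, hsup x⟩ ∈ (Q₀.subgroupOf (P.map H.subtype ⊔ Q₀)).map ψ₀ :=
          ⟨_, Subgroup.mem_subgroupOf.mpr hxQ, rfl⟩
        rw [hmap, hh'] at h1
        exact h1
      · intro hy
        have hyQ : (y : G) ∈ Q₀ := Subgroup.mem_subgroupOf.mp hy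
        rw [← hmap] at hyQ
        obtain ⟨w, hw, hwy⟩ := hyQ
        have hwQ : (w : G) ∈ Q₀ := Subgroup.mem_subgroupOf.mp hw
        have hwH : (w : G) ∈ H := hTH (hQ₀T hwQ)
        refine ⟨⟨⟨w, hwH⟩, Subgroup.mem_sup_right (Subgroup.mem_subgroupOf.mpr hwQ)⟩,
          Subgroup.mem_subgroupOf.mpr (Subgroup.mem_subgroupOf.mpr hwQ), ?_⟩
        apply Subtype.ext
        rw [hh'] at hwy
        exact hwy
  · intro Q' hconj
    obtain ⟨φ, ⟨-, hφT, h, hh⟩, hr⟩ := hconj
    have hconj₀ : (fusionSystemOfSubgroup H T hTH).IsConj Q₀ (Q'.map H.subtype) := by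
      refine ⟨conjHom Q₀ (h : G), ⟨hQ₀T, ?_, h, h.2, fun x => rfl⟩, ?_⟩
      · intro x
        have h1 := hφT ⟨⟨x, hTH (hQ₀T x.2)⟩, Subgroup.mem_subgroupOf.mpr x.2⟩
        rw [hh] at h1
        exact Subgroup.mem_subgroupOf.mp h1
      · ext y
        constructor
        · rintro ⟨x, rfl⟩
          refine ⟨φ ⟨⟨x, hTH (hQ₀T x.2)⟩, Subgroup.mem_subgroupOf.mpr x.2⟩, ?_, ?_⟩
          · rw [← hr]
            exact ⟨_, rfl⟩
          · rw [hh]
            rfl
        · rintro ⟨y', hy', rfl⟩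
          rw [← hr] at hy'
          obtain ⟨x, rfl⟩ := hy'
          refine ⟨⟨(x : H), Subgroup.mem_subgroupOf.mp x.2⟩, ?_⟩
          rw [hh]
          rfl
    have hcen := hQc.2 _ hconj₀
    intro z hz
    have h1 : (z : G) ∈ centralizerIn T (Q'.map H.subtype) := by
      refine ⟨Subgroup.mem_subgroupOf.mp hz.1, ?_⟩
      show (z : G) ∈ Subgroup.centralizer ((Q'.map H.subtype : Subgroup G) : Set G)
      rw [Subgroup.mem_centralizer_iff]
      rintro _ ⟨y, hy, rfl⟩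
      have hz2 : z ∈ Subgroup.centralizer (Q' : Set H) := hz.2
      have h3 := Subgroup.mem_centralizer_iff.mp hz2 y hy
      exact congrArg (fun w : H => (w : G)) h3
    obtain ⟨y, hy, hyz⟩ := hcen h1
    have e : y = z := Subtype.ext hyz
    rw [← e]
    exact hy

end grp

end Cfsg.Agent.Lib.Helper26
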