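import Mathlib
import Cfsg.Agent.Lib.Helper26.FusConstr

set_option autoImplicit false

namespace Cfsg.Agent.Lib.Helper26

open Cfsg Cfsg.FusionSystem

universe u

variable {G : Type u} [Group G]

/-- A `p`-element of `T Z`, `Z` central, lies in the Sylow `p`-subgroup `T`. -/
theorem mem_sylow_of_mul_central {p : ℕ} [Fact p.Prime] (R : Sylow p G) {t z : G}
    (ht : t ∈ (R : Subgroup G)) (hz : z ∈ Subgroup.center G) {k : ℕ}
    (hy : (t * z) ^ (p ^ k) = 1) : t * z ∈ (R : Subgroup G) := by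
  have hN : Subgroup.zpowers (t * z) ≤ Subgroup.normalizer ((R : Subgroup G) : Set G) := by
    rw [Subgroup.zpowers_le, Subgroup.mem_normalizer_iff]
    intro s
    have e : t * z * s * (t * z)⁻¹ = t * s * t⁻¹ := by
      have h1 := Subgroup.mem_center_iff.mp hz s
      calc t * z * s * (t * z)⁻¹ = t * (z * s) * z⁻¹ * t⁻¹ := by group
        _ = t * (s * z) * z⁻¹ * t⁻¹ := by rw [h1]
        _ = t * s * t⁻¹ := by group
    rw [e]
    constructor
    · intro hs
      exact mul_mem (mul_mem ht hs) (inv_mem ht)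
    · intro hs
      have e2 : s = t⁻¹ * (t * s * t⁻¹) * t := by group
      rw [e2]
      exact mul_mem (mul_mem (inv_mem ht) hs) ht
  have hp : IsPGroup p (Subgroup.zpowers (t * z)) := by
    rintro ⟨g, hg⟩
    obtain ⟨n, rfl⟩ := Subgroup.mem_zpowers_iff.mp hg
    refine ⟨k, Subtype.ext ?_⟩
    show ((t * z) ^ n) ^ (p ^ k) = 1
    rw [← zpow_natCast, ← zpow_mul, mul_comm, zpow_mul, zpow_natCast, hy, one_zpow]
  have h1 := hp.to_sup_of_normal_right' R.isPGroup' hN
  have h2 := R.is_maximal' h1 le_sup_right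
  rw [← h2]
  exact Subgroup.mem_sup_left (Subgroup.mem_zpowers _)

/-- Constrainedness of the fusion system of a group on a Sylow subgroup passes to the quotient
by a central subgroup. -/
theorem constrained_central_quotient [Finite G] {p : ℕ} [Fact p.Prime] (R : Sylow p G)
    (Z : Subgroup G) [Z.Normal] (hZ : Z ≤ Subgroup.center G)
    (hc : (groupFusionSystem (R : Subgroup G)).IsConstrained p) :
    (groupFusionSystem ((R : Subgroup G).map (QuotientGroup.mk' Z))).IsConstrained p := by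
  classical
  have hπsurj : Function.Surjective (QuotientGroup.mk' Z) := QuotientGroup.mk'_surjective Z
  obtain ⟨hFs, Q₀, hQ₀n, hQ₀c⟩ := hc
  have hTp : IsPGroup p (R : Subgroup G) := R.isPGroup'
  have hQn : (groupFusionSystem (R : Subgroup G)).IsNormal (groupFusionSystem (R : Subgroup G)).core :=
    isNormal_core _
  have hQT : (groupFusionSystem (R : Subgroup G)).core ≤ (R : Subgroup G) := hQn.1
  have hQc : (groupFusionSystem (R : Subgroup G)).IsCentric (groupFusionSystem (R : Subgroup G)).core :=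
    isCentric_of_le _ hQ₀c (le_sSup hQ₀n) hQT
  constructor
  · have h := groupFusion_saturated (R.mapSurjective hπsurj)
    rw [Sylow.coe_mapSurjective] at h
    exact h
  have hcz : ∀ (g z : G), z ∈ Z → g * z * g⁻¹ = z := by
    intro g z hz
    rw [Subgroup.mem_center_iff.mp (hZ hz) g, mul_inv_cancel_right]
  have hlift : ∀ (x g : G), x ∈ (R : Subgroup G) →
      QuotientGroup.mk' Z (g * x * g⁻¹) ∈ (R : Subgroup G).map (QuotientGroup.mk' Z) →
      g * x * g⁻¹ ∈ (R : Subgroup G) := by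
    intro x g hx hmem
    obtain ⟨t, ht, htx⟩ := hmem
    have hz : t⁻¹ * (g * x * g⁻¹) ∈ Z := QuotientGroup.eq.mp htx
    have e : g * x * g⁻¹ = t * (t⁻¹ * (g * x * g⁻¹)) := by group
    rw [e]
    obtain ⟨k, hk⟩ := hTp ⟨x, hx⟩
    have hk' : x ^ (p ^ k) = 1 := congrArg (fun w : ↥(R : Subgroup G) => (w : G)) hk
    apply mem_sylow_of_mul_central R ht (hZ hz) (k := k)
    rw [← e, conj_pow, hk', mul_one, mul_inv_cancel]
  have hQbarT : (groupFusionSystem (R : Subgroup G)).core.map (QuotientGroup.mk' Z) ≤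
      (R : Subgroup G).map (QuotientGroup.mk' Z) := Subgroup.map_mono hQT
  have hnormal : (groupFusionSystem ((R : Subgroup G).map (QuotientGroup.mk' Z))).IsNormal
      ((groupFusionSystem (R : Subgroup G)).core.map (QuotientGroup.mk' Z)) := by
    refine ⟨hQbarT, ?_⟩
    rintro Pb φ ⟨hPb, hφT, gb, hgb⟩
    obtain ⟨g, rfl⟩ := hπsurj gb
    have hφ₀ : conjHom ((R : Subgroup G) ⊓ Pb.comap (QuotientGroup.mk' Z)) g ∈
        (groupFusionSystem (R : Subgroup G)).Hom
          ((R : Subgroup G) ⊓ Pb.comap (QuotientGroup.mk' Z)) := by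
      refine ⟨inf_le_left, ?_, g, fun x => rfl⟩
      intro x
      apply hlift x g x.2.1
      have h1 := hφT ⟨QuotientGroup.mk' Z x, x.2.2⟩
      rw [hgb] at h1
      rw [map_mul, map_mul, map_inv]
      exact h1
    obtain ⟨ψ, ⟨hPQ, hψT, g', hg'⟩, hext, hmap⟩ := hQn.2 _ _ hφ₀
    have hsup : ∀ y ∈ Pb ⊔ (groupFusionSystem (R : Subgroup G)).core.map (QuotientGroup.mk' Z),
        ∃ x ∈ ((R : Subgroup G) ⊓ Pb.comap (QuotientGroup.mk' Z)) ⊔
          (groupFusionSystem (R : Subgroup G)).core, QuotientGroup.mk' Z x = y := by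
      intro y hy
      have h1 : Pb ⊔ (groupFusionSystem (R : Subgroup G)).core.map (QuotientGroup.mk' Z) ≤
          (((R : Subgroup G) ⊓ Pb.comap (QuotientGroup.mk' Z)) ⊔
            (groupFusionSystem (R : Subgroup G)).core).map (QuotientGroup.mk' Z) := by
        rw [Subgroup.map_sup]
        apply sup_le_sup_right
        intro w hw
        obtain ⟨t, ht, rfl⟩ := hPb hw
        exact ⟨t, ⟨ht, hw⟩, rfl⟩
      exact h1 hy
    refine ⟨conjHom (Pb ⊔ (groupFusionSystem (R : Subgroup G)).core.map (QuotientGroup.mk' Z))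
      (QuotientGroup.mk' Z g'), ⟨sup_le hPb hQbarT, ?_, QuotientGroup.mk' Z g', fun x => rfl⟩,
      ?_, ?_⟩
    · rintro ⟨y, hy⟩
      obtain ⟨x, hx, rfl⟩ := hsup y hy
      show QuotientGroup.mk' Z g' * QuotientGroup.mk' Z x * (QuotientGroup.mk' Z g')⁻¹ ∈
        (R : Subgroup G).map (QuotientGroup.mk' Z)
      refine ⟨ψ ⟨x, hx⟩, hψT _, ?_⟩
      rw [hg', map_mul, map_mul, map_inv]
    · rintro ⟨y, hy⟩
      obtain ⟨t, ht, rfl⟩ := hPb hy
      have h1 := hext ⟨t, ⟨ht, hy⟩⟩
      rw [hg'] at h1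
      have h2 : g' * t * g'⁻¹ = g * t * g⁻¹ := h1
      rw [hgb]
      show QuotientGroup.mk' Z g' * QuotientGroup.mk' Z t * (QuotientGroup.mk' Z g')⁻¹ =
        QuotientGroup.mk' Z g * QuotientGroup.mk' Z t * (QuotientGroup.mk' Z g)⁻¹
      rw [← map_inv, ← map_mul, ← map_mul, ← map_inv, ← map_mul, ← map_mul, h2]
    · ext y
      constructor
      · rintro ⟨⟨w, hw⟩, hwQ, rfl⟩
        obtain ⟨q, hq, rfl⟩ := Subgroup.mem_subgroupOf.mp hwQ
        show QuotientGroup.mk' Z g' * QuotientGroup.mk' Z q * (QuotientGroup.mk' Z g')⁻¹ ∈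
          (groupFusionSystem (R : Subgroup G)).core.map (QuotientGroup.mk' Z)
        have h1 : ψ ⟨q, Subgroup.mem_sup_right hq⟩ ∈
            ((groupFusionSystem (R : Subgroup G)).core.subgroupOf _).map ψ :=
          ⟨_, Subgroup.mem_subgroupOf.mpr hq, rfl⟩
        rw [hmap, hg'] at h1
        refine ⟨_, h1, ?_⟩
        rw [map_mul, map_mul, map_inv]
      · rintro ⟨q, hq, rfl⟩
        rw [← hmap] at hq
        obtain ⟨q₀, hq₀, hq₀q⟩ := hq
        rw [hg'] at hq₀q
        have hq₀Q : (q₀ : G) ∈ (groupFusionSystem (R : Subgroup G)).core :=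
          Subgroup.mem_subgroupOf.mp hq₀
        refine ⟨⟨QuotientGroup.mk' Z q₀, Subgroup.mem_sup_right ⟨q₀, hq₀Q, rfl⟩⟩,
          Subgroup.mem_subgroupOf.mpr ⟨q₀, hq₀Q, rfl⟩, ?_⟩
        show QuotientGroup.mk' Z g' * QuotientGroup.mk' Z q₀ * (QuotientGroup.mk' Z g')⁻¹ =
          QuotientGroup.mk' Z q
        rw [← hq₀q, map_mul, map_mul, map_inv]
  refine ⟨(groupFusionSystem (R : Subgroup G)).core.map (QuotientGroup.mk' Z), hnormal, hQbarT,
    fun Q' hconj => ?_⟩
  rw [conj_eq_of_isNormal _ hnormal hconj]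
  have hR₀n : (groupFusionSystem (R : Subgroup G)).IsNormal (Z ⊓ (R : Subgroup G)) := by
    refine ⟨inf_le_right, ?_⟩
    rintro P φ ⟨hP, hφT, g, hg⟩
    have hle : P ⊔ (Z ⊓ (R : Subgroup G)) ≤
        (R : Subgroup G).comap (MulAut.conj g).toMonoidHom := by
      apply sup_le
      · intro x hx
        show g * x * g⁻¹ ∈ (R : Subgroup G)
        rw [← hg ⟨x, hx⟩]
        exact hφT _
      · intro x hx
        show g * x * g⁻¹ ∈ (R : Subgroup G)
        rw [hcz g x hx.1]
        exact hx.2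
    refine ⟨conjHom (P ⊔ (Z ⊓ (R : Subgroup G))) g, ⟨sup_le hP inf_le_right, fun x => hle x.2,
      g, fun x => rfl⟩, fun x => (hg x).symm, ?_⟩
    ext y
    constructor
    · rintro ⟨w, hw, rfl⟩
      have hw' : (w : G) ∈ Z ⊓ (R : Subgroup G) := Subgroup.mem_subgroupOf.mp hw
      show g * (w : G) * g⁻¹ ∈ Z ⊓ (R : Subgroup G)
      rw [hcz g w hw'.1]
      exact hw'
    · intro hy
      refine ⟨⟨y, Subgroup.mem_sup_right hy⟩, Subgroup.mem_subgroupOf.mpr hy, ?_⟩
      show g * y * g⁻¹ = y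
      exact hcz g y hy.1
  have hR₀le : Z ⊓ (R : Subgroup G) ≤ (groupFusionSystem (R : Subgroup G)).core := le_sSup hR₀n
  have hR₀sc := stronglyClosed_of_isNormal _ hR₀n
  have hDle : (R : Subgroup G) ⊓ (Subgroup.centralizer
      (((groupFusionSystem (R : Subgroup G)).core.map (QuotientGroup.mk' Z) :
        Subgroup (G ⧸ Z)) : Set (G ⧸ Z))).comap (QuotientGroup.mk' Z) ≤
      (groupFusionSystem (R : Subgroup G)).core := by
    apply le_core_of_stab hTp _ hFs hQc hR₀le hR₀sc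
    · refine ⟨inf_le_left, ?_⟩
      rintro U hU φ ⟨hUT, hφT, g, hg⟩ x
      refine ⟨hφT x, ?_⟩
      obtain ⟨ψ, ⟨hPQ, hψT, g', hg'⟩, hext, hmap⟩ := hQn.2 U φ ⟨hUT, hφT, g, hg⟩
      show QuotientGroup.mk' Z (φ x) ∈ Subgroup.centralizer _
      rw [Subgroup.mem_centralizer_iff]
      rintro _ ⟨q, hq, rfl⟩
      rw [← hmap] at hq
      obtain ⟨q₀, hq₀, hq₀q⟩ := hq
      have hq₀Q : (q₀ : G) ∈ (groupFusionSystem (R : Subgroup G)).core :=
        Subgroup.mem_subgroupOf.mp hq₀
      have e1 : φ x = g' * x * g'⁻¹ := by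
        rw [← hext x, hg']
        rfl
      have e2 : q = g' * q₀ * g'⁻¹ := by
        rw [← hq₀q, hg']
      have hxc : QuotientGroup.mk' Z x ∈ Subgroup.centralizer
          (((groupFusionSystem (R : Subgroup G)).core.map (QuotientGroup.mk' Z) :
            Subgroup (G ⧸ Z)) : Set (G ⧸ Z)) := (hU x.2).2
      have h3 := Subgroup.mem_centralizer_iff.mp hxc (QuotientGroup.mk' Z q₀) ⟨q₀, hq₀Q, rfl⟩
      rw [e1, e2]
      simp only [map_mul, map_inv]
      calc QuotientGroup.mk' Z g' * QuotientGroup.mk' Z q₀ * (QuotientGroup.mk' Z g')⁻¹ *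
            (QuotientGroup.mk' Z g' * QuotientGroup.mk' Z x * (QuotientGroup.mk' Z g')⁻¹)
          = QuotientGroup.mk' Z g' * (QuotientGroup.mk' Z q₀ * QuotientGroup.mk' Z x) *
            (QuotientGroup.mk' Z g')⁻¹ := by group
        _ = QuotientGroup.mk' Z g' * (QuotientGroup.mk' Z x * QuotientGroup.mk' Z q₀) *
            (QuotientGroup.mk' Z g')⁻¹ := by rw [h3]
        _ = _ := by group
    · intro d hd r hr
      exact Subgroup.mem_center_iff.mp (hZ hr.1) d
    · intro d hd q hq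
      refine ⟨?_, ?_⟩
      · have hdc : QuotientGroup.mk' Z d ∈ Subgroup.centralizer
            (((groupFusionSystem (R : Subgroup G)).core.map (QuotientGroup.mk' Z) :
              Subgroup (G ⧸ Z)) : Set (G ⧸ Z)) := hd.2
        have h3 := Subgroup.mem_centralizer_iff.mp hdc (QuotientGroup.mk' Z q) ⟨q, hq, rfl⟩
        have h4 : QuotientGroup.mk' Z (q⁻¹ * (d * q * d⁻¹)) = 1 := by
          rw [map_mul, map_mul, map_mul, map_inv, map_inv, ← h3]
          group
        exact (QuotientGroup.eq_one_iff _).mp h4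
      · have hdT : d ∈ (R : Subgroup G) := hd.1
        have hqT : q ∈ (R : Subgroup G) := hQT hq
        exact Subgroup.mul_mem _ (Subgroup.inv_mem _ hqT)
          (Subgroup.mul_mem _ (Subgroup.mul_mem _ hdT hqT) (Subgroup.inv_mem _ hdT))
  intro xb hxb
  obtain ⟨x, hx, rfl⟩ := hxb.1
  exact ⟨x, hDle ⟨hx, hxb.2⟩, rfl⟩

end Cfsg.Agent.Lib.Helper26
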