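import Mathlib
import Cfsg.Prelude.Def_FusionSystem
import Cfsg.Agent.Lib.Helper26.FusBasic
import Cfsg.Agent.Lib.Helper26.FusAut
import Cfsg.Agent.Lib.Helper26.FusSat
import Cfsg.Agent.Lib.Helper26.FusSat2
import Cfsg.Agent.Lib.Helper26.FusSat3
import Cfsg.Agent.Lib.Helper26.FusCen
import Cfsg.Agent.Lib.Helper26.FusGrp

/-!
# A simplicity criterion for the fusion system of a group

Subsystems over the whole Sylow subgroup `S` that are invariant in `F_S(G)` and saturated contain
the conjugations by `p`-elements of `N_G(R)` (for `R` fully normalized), and these extend from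
centric subgroups up to `S`.
-/

set_option autoImplicit false

namespace Cfsg.Agent.Lib.Helper26

open Cfsg Cfsg.FusionSystem

universe u

section abs

variable {Ω : Type u} [Group Ω] {S : Subgroup Ω}

/-- A centric subgroup is fully centralized. -/
theorem centric_fullyCentralized [Finite S] (F : FusionSystem S) {R : Subgroup Ω}
    (hR : F.IsCentric R) : F.IsFullyCentralized R := by
  refine ⟨hR.1, fun Q hQ => ?_⟩
  obtain ⟨e, he⟩ := (isConj_iff_iso F).mp hQ
  have hle : centralizerIn S Q ≤ Q := hR.2 Q hQ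
  have hfin : Finite ↥(centralizerIn S R) := finite_of_le (centralizerIn_le S R)
  have hmem : ∀ x : ↥(centralizerIn S Q),
      ((e.symm ⟨x, hle x.2⟩ : R) : Ω) ∈ centralizerIn S R := by
    intro x
    refine mem_centralizerIn_iff.mpr ⟨hR.1 (e.symm ⟨x, hle x.2⟩).2, ?_⟩
    rw [Subgroup.mem_centralizer_iff]
    intro y hy
    have hx : (x : Ω) ∈ Subgroup.centralizer (Q : Set Ω) := (mem_centralizerIn_iff.mp x.2).2
    have h1 : (e ⟨y, hy⟩ : Q) * ⟨x, hle x.2⟩ = ⟨x, hle x.2⟩ * e ⟨y, hy⟩ := by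
      apply Subtype.ext
      exact (Subgroup.mem_centralizer_iff.mp hx) _ (e ⟨y, hy⟩).2
    have h2 := congrArg e.symm h1
    rw [map_mul, map_mul, MulEquiv.symm_apply_apply] at h2
    exact congrArg Subtype.val h2
  refine Nat.card_le_card_of_injective (fun x => (⟨_, hmem x⟩ : ↥(centralizerIn S R))) ?_
  intro x y hxy
  have h0 : ((e.symm ⟨x, hle x.2⟩ : R) : Ω) = ((e.symm ⟨y, hle y.2⟩ : R) : Ω) := by
    have hxy' : (⟨_, hmem x⟩ : ↥(centralizerIn S R)) = ⟨_, hmem y⟩ := hxy
    exact congrArg (fun t : ↥(centralizerIn S R) => (t : Ω)) hxy'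
  have h1 : e.symm ⟨x, hle x.2⟩ = e.symm ⟨y, hle y.2⟩ := Subtype.ext h0
  have h2 := e.symm.injective h1
  have h3 : (x : Ω) = (y : Ω) := congrArg (fun t : Q => (t : Ω)) h2
  exact Subtype.ext h3

/-- Centric subgroups of a system are centric in every subsystem over the same group. -/
theorem centric_of_subsystem {E F : FusionSystem S} (hEF : E.IsSubsystemOf F) {R : Subgroup Ω}
    (hR : F.IsCentric R) : E.IsCentric R :=
  ⟨hR.1, fun Q hQ => by
    obtain ⟨φ, hφ, hr⟩ := hQ
    exact hR.2 Q ⟨φ, hEF _ hφ, hr⟩⟩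

end abs

section grp

variable {G : Type u} [Group G]

theorem conj_mem_normalizer_inf {A B : Subgroup G} {g : G}
    (hA : g ∈ Subgroup.normalizer (A : Set G)) (hB : g ∈ Subgroup.normalizer (B : Set G)) :
    g ∈ Subgroup.normalizer ((normalizerIn A B : Subgroup G) : Set G) := by
  rw [Subgroup.mem_normalizer_iff]
  intro h
  have hB' : ∀ h : G, h ∈ Subgroup.normalizer (B : Set G) ↔
      g * h * g⁻¹ ∈ Subgroup.normalizer (B : Set G) := by
    intro h
    constructor
    · intro hh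
      exact Subgroup.mul_mem _ (Subgroup.mul_mem _ hB hh) (Subgroup.inv_mem _ hB)
    · intro hh
      have h1 := Subgroup.mul_mem _ (Subgroup.mul_mem _ (Subgroup.inv_mem _ hB) hh) hB
      have e : g⁻¹ * (g * h * g⁻¹) * g = h := by group
      rwa [e] at h1
  constructor
  · intro hh
    have hh' := mem_normalizerIn_iff.mp hh
    exact mem_normalizerIn_iff.mpr ⟨(Subgroup.mem_normalizer_iff.mp hA h).mp hh'.1,
      (hB' h).mp hh'.2⟩
  · intro hh
    have hh' := mem_normalizerIn_iff.mp hh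
    exact mem_normalizerIn_iff.mpr ⟨(Subgroup.mem_normalizer_iff.mp hA h).mpr hh'.1,
      (hB' h).mpr hh'.2⟩

/-- Extension of conjugations from centric subgroups to the Sylow subgroup inside a saturated
subsystem of the fusion system of a group. -/
theorem conj_top_of_centric [Finite G] {p : ℕ} [Fact p.Prime] (S : Sylow p G)
    (E : FusionSystem (S : Subgroup G)) (hE : E.IsSaturated p)
    (hEF : E.IsSubsystemOf (groupFusionSystem (S : Subgroup G))) (g : G)
    (hgS : g ∈ Subgroup.normalizer ((S : Subgroup G) : Set G)) :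
    ∀ (n : ℕ) (R : Subgroup G), (groupFusionSystem (S : Subgroup G)).IsCentric R →
      g ∈ Subgroup.normalizer (R : Set G) → conjHom R g ∈ E.Hom R →
      Nat.card (S : Subgroup G) - Nat.card R ≤ n →
      conjHom (S : Subgroup G) g ∈ E.Hom (S : Subgroup G) := by
  have hS : IsPGroup p (S : Subgroup G) := S.isPGroup'
  have key : ∀ (R : Subgroup G), (groupFusionSystem (S : Subgroup G)).IsCentric R →
      g ∈ Subgroup.normalizer (R : Set G) → conjHom R g ∈ E.Hom R → R ≠ (S : Subgroup G) →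
      ∃ N : Subgroup G, (groupFusionSystem (S : Subgroup G)).IsCentric N ∧
        g ∈ Subgroup.normalizer (N : Set G) ∧ conjHom N g ∈ E.Hom N ∧
        Nat.card R < Nat.card N := by
    intro R hR hgR hc hRS
    have hlt : R < (S : Subgroup G) := lt_of_le_of_ne hR.1 hRS
    have hltN := lt_normalizerIn hS hlt
    have hNS : normalizerIn (S : Subgroup G) R ≤ S := normalizerIn_le _ _
    have hgN := conj_mem_normalizer_inf hgS hgR
    have hRc : E.IsCentric R := centric_of_subsystem hEF hR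
    have hrec : E.IsReceptive R :=
      fullyCentralized_receptive hS E hE (centric_fullyCentralized E hRc)
    have he : (R.normalizerMonoidHom ⟨g, hgR⟩ : R ≃* R) ∈ IsoSet E R R := by
      show R.subtype.comp (R.normalizerMonoidHom ⟨g, hgR⟩ : R ≃* R).toMonoidHom ∈ E.Hom R
      have e1 : R.subtype.comp (R.normalizerMonoidHom ⟨g, hgR⟩ : R ≃* R).toMonoidHom =
          conjHom R g := by
        ext x
        rfl
      rw [e1]
      exact hc
    have hext : normalizerIn (S : Subgroup G) R ≤ extender (S : Subgroup G) R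
        (R.subtype.comp (R.normalizerMonoidHom ⟨g, hgR⟩ : R ≃* R).toMonoidHom) := by
      intro x hx
      rw [mem_extender_iff]
      have hx' := mem_normalizerIn_iff.mp hx
      refine ⟨hx'.1, hx'.2, g * x * g⁻¹, ?_, ?_⟩
      · exact (Subgroup.mem_normalizer_iff.mp hgS x).mp hx'.1
      · intro y hy
        show g * (x * y * x⁻¹) * g⁻¹ = g * x * g⁻¹ * (g * y * g⁻¹) * (g * x * g⁻¹)⁻¹
        group
    obtain ⟨φ, hφ, hφe⟩ := extend_to_normalizer E hrec he hext
    have hψ1 : (normalizerIn (S : Subgroup G) R).subtype.comp φ ∈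
        E.Hom (normalizerIn (S : Subgroup G) R) := hφ
    have hψ1F := hEF _ hψ1
    have hcF : conjHom (normalizerIn (S : Subgroup G) R) g ∈
        (groupFusionSystem (S : Subgroup G)).Hom (normalizerIn (S : Subgroup G) R) := by
      refine ⟨hNS, fun x => ?_, g, fun x => rfl⟩
      show g * x * g⁻¹ ∈ (S : Subgroup G)
      exact (Subgroup.mem_normalizer_iff.mp hgS x).mp (hNS x.2)
    have hagree : ∀ x : ↥(normalizerIn (S : Subgroup G) R), (x : G) ∈ R →
        ((normalizerIn (S : Subgroup G) R).subtype.comp φ) x =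
          conjHom (normalizerIn (S : Subgroup G) R) g x := by
      intro x hx
      exact hφe ⟨x, hx⟩ x.2
    obtain ⟨z, hzR, hzC, hz⟩ := hom_eq_of_agree hS (groupFusionSystem (S : Subgroup G))
      (groupFusion_saturated S) hNS _ R hltN.le hR le_rfl
      ((normalizerIn (S : Subgroup G) R).subtype.comp φ)
      (conjHom (normalizerIn (S : Subgroup G) R) g) hψ1F hcF hagree
    have hcE : conjHom (normalizerIn (S : Subgroup G) R) g ∈
        E.Hom (normalizerIn (S : Subgroup G) R) := by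
      have h1 : conjHom (normalizerIn (S : Subgroup G) R) (z : G) ∈
          E.Hom (normalizerIn (S : Subgroup G) R) := E.conj_mem hNS (hNS z.2)
      have hmem : ∀ x : ↥(normalizerIn (S : Subgroup G) R),
          conjHom (normalizerIn (S : Subgroup G) R) (z : G) x ∈
            normalizerIn (S : Subgroup G) R := by
        intro x
        show (z : G) * x * (z : G)⁻¹ ∈ normalizerIn (S : Subgroup G) R
        exact Subgroup.mul_mem _ (Subgroup.mul_mem _ z.2 x.2) (Subgroup.inv_mem _ z.2)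
      have h2 := E.comp_mem h1 hψ1 hmem
      have e2 : ((normalizerIn (S : Subgroup G) R).subtype.comp φ).comp
          ((conjHom (normalizerIn (S : Subgroup G) R) (z : G)).codRestrict
            (normalizerIn (S : Subgroup G) R) hmem) =
          conjHom (normalizerIn (S : Subgroup G) R) g := by
        ext y
        rw [hz y]
        rfl
      rwa [e2] at h2
    refine ⟨normalizerIn (S : Subgroup G) R, isCentric_of_le _ hR hltN.le hNS, hgN, hcE, ?_⟩
    by_contra hcon
    have hfin : Finite ↥(normalizerIn (S : Subgroup G) R) := finite_of_le hNS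
    have := Subgroup.eq_of_le_of_card_ge hltN.le (not_lt.mp hcon)
    exact hltN.ne this
  intro n
  induction n with
  | zero =>
    intro R hR hgR hc hn
    by_contra hcon
    have hRS : R ≠ (S : Subgroup G) := by
      rintro rfl
      exact hcon hc
    obtain ⟨N, hN, -, -, hlt⟩ := key R hR hgR hc hRS
    have := Subgroup.card_le_of_le hN.1
    omega
  | succ n ih =>
    intro R hR hgR hc hn
    by_cases hRS : R = (S : Subgroup G)
    · subst hRS
      exact hc
    obtain ⟨N, hN, hgN, hcN, hlt⟩ := key R hR hgR hc hRS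
    refine ih N hN hgN hcN ?_
    have := Subgroup.card_le_of_le hN.1
    omega

/-- Conjugation by a `p`-element of `N_G(R)`, for `R` fully normalized, lies in every subsystem
over `S` satisfying the Frattini condition in `F_S(G)`. -/
theorem conj_mem_of_pElement [Finite G] {p : ℕ} [Fact p.Prime] (S : Sylow p G)
    (E : FusionSystem (S : Subgroup G))
    (hFr : ∀ (P : Subgroup G), P ≤ (S : Subgroup G) → ∀ (φ : P →* G),
      φ ∈ (groupFusionSystem (S : Subgroup G)).Hom P →
      ∃ α ∈ (groupFusionSystem (S : Subgroup G)).autGroup (S : Subgroup G), ∃ φ₀ ∈ E.Hom P,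
        ∀ (x : P) (hx : φ₀ x ∈ (S : Subgroup G)),
          φ x = ((α ⟨φ₀ x, hx⟩ : (S : Subgroup G)) : G))
    {R : Subgroup G} (hR : (groupFusionSystem (S : Subgroup G)).IsFullyNormalized R)
    {x : G} (hxN : x ∈ Subgroup.normalizer (R : Set G)) {k : ℕ} (hxo : orderOf x = p ^ k) :
    conjHom R x ∈ E.Hom R := by
  have hRS := hR.1
  have hsyl := (groupFusion_fullyNormalized_iff S hRS).mp hR
  have hX : IsPGroup p (Subgroup.zpowers x) :=
    IsPGroup.of_card (n := k) (by rw [Nat.card_zpowers, hxo])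
  obtain ⟨n, hn, hnx⟩ := hsyl.conj_le (X := Subgroup.zpowers x)
    (by rw [Subgroup.zpowers_le]; exact hxN) hX
  have hs : n * x * n⁻¹ ∈ normalizerIn (S : Subgroup G) R := hnx x (Subgroup.mem_zpowers x)
  have hcn : conjHom R n ∈ (groupFusionSystem (S : Subgroup G)).Hom R := by
    refine ⟨hRS, fun y => ?_, n, fun y => rfl⟩
    show n * y * n⁻¹ ∈ (S : Subgroup G)
    exact hRS ((Subgroup.mem_normalizer_iff.mp hn y).mp y.2)
  obtain ⟨α, hα, φ₀, hφ₀, hαφ⟩ := hFr R hRS _ hcn
  rw [groupFusion_autGroup _ le_rfl] at hα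
  obtain ⟨m, -, hm⟩ := mem_autInducedBy_iff.mp hα
  have hmS : m ∈ Subgroup.normalizer ((S : Subgroup G) : Set G) := normalizer_of_autInduced hm
  have hφ₀S : ∀ y : R, φ₀ y ∈ (S : Subgroup G) := (E.le_of_mem hφ₀).2
  have hφ₀k : ∀ y : R, φ₀ y = m⁻¹ * n * y * n⁻¹ * m := by
    intro y
    have h1 := hαφ y (hφ₀S y)
    rw [hm] at h1
    have h2 : n * (y : G) * n⁻¹ = m * φ₀ y * m⁻¹ := h1
    calc φ₀ y = m⁻¹ * (m * φ₀ y * m⁻¹) * m := by group
      _ = m⁻¹ * n * y * n⁻¹ * m := by rw [← h2]; group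
  have hs'S : m⁻¹ * (n * x * n⁻¹) * m ∈ (S : Subgroup G) := by
    have h1 := (Subgroup.mem_normalizer_iff.mp (Subgroup.inv_mem _ hmS) (n * x * n⁻¹)).mp
      (mem_normalizerIn_iff.mp hs).1
    rwa [inv_inv] at h1
  obtain ⟨ψ', hψ', hψ'φ⟩ := E.inv_mem hφ₀
  have hR' : φ₀.range ≤ (S : Subgroup G) := by
    rintro _ ⟨y, rfl⟩
    exact hφ₀S y
  have hcs : conjHom φ₀.range (m⁻¹ * (n * x * n⁻¹) * m) ∈ E.Hom φ₀.range :=
    E.conj_mem hR' hs'S
  have hxy : ∀ y : R, x * (y : G) * x⁻¹ ∈ R := fun y =>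
    (Subgroup.mem_normalizer_iff.mp hxN y).mp y.2
  have hkey : ∀ y : R, m⁻¹ * (n * x * n⁻¹) * m * φ₀ y * (m⁻¹ * (n * x * n⁻¹) * m)⁻¹ =
      φ₀ ⟨x * y * x⁻¹, hxy y⟩ := by
    intro y
    rw [hφ₀k, hφ₀k]
    show m⁻¹ * (n * x * n⁻¹) * m * (m⁻¹ * n * y * n⁻¹ * m) * (m⁻¹ * (n * x * n⁻¹) * m)⁻¹ =
      m⁻¹ * n * (x * y * x⁻¹) * n⁻¹ * m
    group
  have hm1 : ∀ y : R, φ₀ y ∈ φ₀.range := fun y => ⟨y, rfl⟩
  have h1 := E.comp_mem hφ₀ hcs hm1
  have hm2 : ∀ y : R, ((conjHom φ₀.range (m⁻¹ * (n * x * n⁻¹) * m)).comp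
      (φ₀.codRestrict φ₀.range hm1)) y ∈ φ₀.range := by
    intro y
    show m⁻¹ * (n * x * n⁻¹) * m * φ₀ y * (m⁻¹ * (n * x * n⁻¹) * m)⁻¹ ∈ φ₀.range
    rw [hkey]
    exact ⟨_, rfl⟩
  have h2 := E.comp_mem h1 hψ' hm2
  have e2 : ψ'.comp (((conjHom φ₀.range (m⁻¹ * (n * x * n⁻¹) * m)).comp
      (φ₀.codRestrict φ₀.range hm1)).codRestrict φ₀.range hm2) = conjHom R x := by
    ext y
    have h3 : (((conjHom φ₀.range (m⁻¹ * (n * x * n⁻¹) * m)).comp
        (φ₀.codRestrict φ₀.range hm1)).codRestrict φ₀.range hm2) y =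
        (⟨φ₀ ⟨x * y * x⁻¹, hxy y⟩, ⟨_, rfl⟩⟩ : φ₀.range) := Subtype.ext (hkey y)
    show ψ' ((((conjHom φ₀.range (m⁻¹ * (n * x * n⁻¹) * m)).comp
        (φ₀.codRestrict φ₀.range hm1)).codRestrict φ₀.range hm2) y) = x * y * x⁻¹
    rw [h3]
    exact hψ'φ ⟨x * y * x⁻¹, hxy y⟩
  rwa [e2] at h2

/-- The elements of `N_G(R)` whose conjugation on `R` lies in the system `E` are closed under
products. -/
theorem conj_mem_mul {S : Subgroup G} (E : FusionSystem S) {R : Subgroup G} {a b : G}
    (ha : a ∈ Subgroup.normalizer (R : Set G) ∧ conjHom R a ∈ E.Hom R)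
    (hb : b ∈ Subgroup.normalizer (R : Set G) ∧ conjHom R b ∈ E.Hom R) :
    a * b ∈ Subgroup.normalizer (R : Set G) ∧ conjHom R (a * b) ∈ E.Hom R := by
  refine ⟨Subgroup.mul_mem _ ha.1 hb.1, ?_⟩
  have hm : ∀ y : R, conjHom R b y ∈ R := fun y =>
    (Subgroup.mem_normalizer_iff.mp hb.1 y).mp y.2
  have h := E.comp_mem hb.2 ha.2 hm
  have e : (conjHom R a).comp ((conjHom R b).codRestrict R hm) = conjHom R (a * b) := by
    ext y
    show a * (b * y * b⁻¹) * a⁻¹ = a * b * y * (a * b)⁻¹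
    group
  rwa [e] at h

theorem conj_mem_pow {S : Subgroup G} (E : FusionSystem S) {R : Subgroup G} (hRS : R ≤ S) {a : G}
    (ha : a ∈ Subgroup.normalizer (R : Set G) ∧ conjHom R a ∈ E.Hom R) (n : ℕ) :
    a ^ n ∈ Subgroup.normalizer (R : Set G) ∧ conjHom R (a ^ n) ∈ E.Hom R := by
  induction n with
  | zero =>
    rw [pow_zero]
    exact ⟨Subgroup.one_mem _, E.conj_mem hRS S.one_mem⟩
  | succ n ih =>
    rw [pow_succ]
    exact conj_mem_mul E ih ha

/-- Conjugation on `R` by an element of the subgroup generated by the `p`-elements of `N_G(R)`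
lies in `E`. -/
theorem conj_mem_of_closure [Finite G] {p : ℕ} [Fact p.Prime] (S : Sylow p G)
    (E : FusionSystem (S : Subgroup G))
    (hFr : ∀ (P : Subgroup G), P ≤ (S : Subgroup G) → ∀ (φ : P →* G),
      φ ∈ (groupFusionSystem (S : Subgroup G)).Hom P →
      ∃ α ∈ (groupFusionSystem (S : Subgroup G)).autGroup (S : Subgroup G), ∃ φ₀ ∈ E.Hom P,
        ∀ (x : P) (hx : φ₀ x ∈ (S : Subgroup G)),
          φ x = ((α ⟨φ₀ x, hx⟩ : (S : Subgroup G)) : G))
    {R : Subgroup G} (hR : (groupFusionSystem (S : Subgroup G)).IsFullyNormalized R)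
    {g : G} (hg : g ∈ Subgroup.closure
      {g : G | g ∈ Subgroup.normalizer (R : Set G) ∧ ∃ k : ℕ, orderOf g = p ^ k}) :
    g ∈ Subgroup.normalizer (R : Set G) ∧ conjHom R g ∈ E.Hom R := by
  refine Subgroup.closure_induction
    (p := fun g _ => g ∈ Subgroup.normalizer (R : Set G) ∧ conjHom R g ∈ E.Hom R) ?_ ?_ ?_ ?_ hg
  · rintro x ⟨hxN, k, hk⟩
    exact ⟨hxN, conj_mem_of_pElement S E hFr hR hxN hk⟩
  · exact ⟨Subgroup.one_mem _, E.conj_mem hR.1 (Subgroup.one_mem _)⟩
  · intro a b _ _ ha hb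
    exact conj_mem_mul E ha hb
  · intro a _ ha
    have h1 := conj_mem_pow E hR.1 ha (orderOf a - 1)
    have h2 : a⁻¹ = a ^ (orderOf a - 1) := by
      have hpos : 0 < orderOf a := orderOf_pos a
      have h3 : a * a ^ (orderOf a - 1) = 1 := by
        rw [← pow_succ', Nat.sub_add_cancel hpos, pow_orderOf_eq_one]
      exact inv_eq_of_mul_eq_one_right h3
    rw [h2]
    exact h1

/-- A saturated subsystem over the whole Sylow subgroup `S`, invariant in `F_S(G)`, is all of
`F_S(G)` as soon as `Aut_G(S)` is generated by the images of the groups `O^{p'}(N_G(R))`, `R` fully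
normalized and centric. -/
theorem hom_eq_of_invariant_top [Finite G] {p : ℕ} [Fact p.Prime] (S : Sylow p G)
    (hb : autInducedBy ⊤ (S : Subgroup G) = ⨆ (R : Subgroup G)
      (_ : (groupFusionSystem (S : Subgroup G)).IsFullyNormalized R ∧
        (groupFusionSystem (S : Subgroup G)).IsRadical p R ∧
        (groupFusionSystem (S : Subgroup G)).IsCentric R),
      autInducedBy (Subgroup.closure
        {g : G | g ∈ Subgroup.normalizer (R : Set G) ∧ ∃ k : ℕ, orderOf g = p ^ k})
        (S : Subgroup G))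
    (E : FusionSystem (S : Subgroup G)) (hE : E.IsSaturated p)
    (hinv : E.IsInvariantIn (groupFusionSystem (S : Subgroup G))) :
    ∀ P : Subgroup G, E.Hom P = (groupFusionSystem (S : Subgroup G)).Hom P := by
  obtain ⟨hEF, -, -, hFr⟩ := hinv
  have haut : (groupFusionSystem (S : Subgroup G)).autGroup (S : Subgroup G) ≤
      E.autGroup (S : Subgroup G) := by
    rw [groupFusion_autGroup _ le_rfl, hb]
    refine iSup₂_le fun R hR => ?_
    intro α hα
    obtain ⟨g, hg, hgα⟩ := mem_autInducedBy_iff.mp hα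
    have hgS : g ∈ Subgroup.normalizer ((S : Subgroup G) : Set G) := normalizer_of_autInduced hgα
    obtain ⟨hgR, hcR⟩ := conj_mem_of_closure S E hFr hR.1 hg
    have hc := conj_top_of_centric S E hE hEF g hgS _ R hR.2.2 hgR hcR le_rfl
    rw [mem_autGroup_iff E le_rfl]
    show (S : Subgroup G).subtype.comp α.toMonoidHom ∈ E.Hom (S : Subgroup G)
    have e : (S : Subgroup G).subtype.comp α.toMonoidHom = conjHom (S : Subgroup G) g := by
      ext x
      exact hgα x
    rw [e]
    exact hc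
  intro P
  refine Set.Subset.antisymm (hEF P) ?_
  intro φ hφ
  have hPS : P ≤ (S : Subgroup G) := hφ.1
  obtain ⟨α, hα, φ₀, hφ₀, hαφ⟩ := hFr P hPS φ hφ
  have hαE := haut hα
  rw [mem_autGroup_iff E le_rfl] at hαE
  have hαE' : (S : Subgroup G).subtype.comp α.toMonoidHom ∈ E.Hom (S : Subgroup G) := hαE
  have hm : ∀ x : P, φ₀ x ∈ (S : Subgroup G) := (E.le_of_mem hφ₀).2
  have h := E.comp_mem hφ₀ hαE' hm
  have e : ((S : Subgroup G).subtype.comp α.toMonoidHom).comp
      (φ₀.codRestrict (S : Subgroup G) hm) = φ := by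
    ext x
    exact (hαφ x (hm x)).symm
  rwa [e] at h

end grp

end Cfsg.Agent.Lib.Helper26
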